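import Mathlib
import Cfsg.Agent.Lib.Helper23.OHyp.CntDefs

/-!
# OHYP (S5992), cut of [CNT]: package [CNTIN]

The number of hyperbolic `m`-spaces inside `fixSp x` is prime to `r` (orbit-stabilizer for the
pointwise stabilizer of `movSp x`, transitive by [CNTWITT], of order prime to `r` by [CNTCAUCHY]).
-/

set_option autoImplicit false
open scoped MatrixGroups
open Matrix

namespace Cfsg.Agent.Lib.Helper88.OHyp

open Cfsg.Agent.Lib.Helper23.OHyp

universe u

section basics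

set_option linter.unusedSectionVars false

variable {F : Type u} [Field F] {ι : Type} [Fintype ι] [DecidableEq ι]

/-- the action of a subgroup of `GL` on subspaces. -/
@[reducible] def subAct (G : Subgroup (GL ι F)) : MulAction ↥G (Submodule F (ι → F)) where
  smul g W := W.map (Matrix.toLin' ((g : GL ι F) : Matrix ι ι F))
  one_smul W := by
    show W.map (Matrix.toLin' (((1 : ↥G) : GL ι F) : Matrix ι ι F)) = W
    rw [Subgroup.coe_one, Units.val_one, Matrix.toLin'_one]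
    exact Submodule.map_id W
  mul_smul g h W := by
    show W.map (Matrix.toLin' (((g * h : ↥G) : GL ι F) : Matrix ι ι F)) =
      (W.map (Matrix.toLin' ((h : GL ι F) : Matrix ι ι F))).map
        (Matrix.toLin' ((g : GL ι F) : Matrix ι ι F))
    rw [Subgroup.coe_mul, Units.val_mul, Matrix.toLin'_mul, Submodule.map_comp]

theorem polar_isom {Q : (ι → F) → F} {g : Matrix ι ι F} (hg : ∀ v, Q (g *ᵥ v) = Q v)
    (u v : ι → F) :
    QuadraticMap.polar Q (g *ᵥ u) (g *ᵥ v) = QuadraticMap.polar Q u v := by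
  unfold QuadraticMap.polar
  rw [← Matrix.mulVec_add, hg, hg, hg]

theorem gl_inj (g : GL ι F) : Function.Injective (Matrix.toLin' (g : Matrix ι ι F)) := by
  intro a b hab
  have h := congrArg (fun w => ((g⁻¹ : GL ι F) : Matrix ι ι F) *ᵥ w) hab
  simp only [Matrix.toLin'_apply, Matrix.mulVec_mulVec, Units.inv_mul, Matrix.one_mulVec] at h
  exact h

theorem bil_sub_left {f : (ι → F) → (ι → F) → F} (hf : Cfsg.Geo.IsBilinearForm f)
    (a b w : ι → F) : f (a - b) w = f a w - f b w := by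
  have h : a - b = a + (-1 : F) • b := by rw [neg_one_smul, sub_eq_add_neg]
  rw [h, hf.add_left, hf.smul_left]; ring

theorem bil_sub_right {f : (ι → F) → (ι → F) → F} (hf : Cfsg.Geo.IsBilinearForm f)
    (w a b : ι → F) : f w (a - b) = f w a - f w b := by
  have h : a - b = a + (-1 : F) • b := by rw [neg_one_smul, sub_eq_add_neg]
  rw [h, hf.add_right, hf.smul_right]; ring

theorem mem_movSp_iff {x : Matrix ι ι F} {n : ι → F} : n ∈ movSp x ↔ ∃ w, x *ᵥ w - w = n := by
  unfold movSp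
  rw [LinearMap.mem_range]
  rfl

theorem mem_fixSp_iff {x : Matrix ι ι F} {v : ι → F} : v ∈ fixSp x ↔ x *ᵥ v = v := by
  unfold fixSp
  rw [LinearMap.mem_ker, LinearMap.sub_apply, Matrix.toLin'_apply, sub_eq_zero]
  rfl

/-- a vector orthogonal to `movSp x` is fixed by the invertible isometry `x`. -/
theorem fix_of_perp {Q : (ι → F) → F} (hQ : Cfsg.Geo.IsNondegenerateQuadraticForm Q)
    {x y : Matrix ι ι F} (hxy : x * y = 1) (hx : ∀ v, Q (x *ᵥ v) = Q v) (v : ι → F)
    (hv : ∀ n ∈ movSp x, QuadraticMap.polar Q v n = 0) : v ∈ fixSp x := by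
  have hxv : x *ᵥ (y *ᵥ v) = v := by rw [Matrix.mulVec_mulVec, hxy, Matrix.one_mulVec]
  have key : ∀ w, QuadraticMap.polar Q (y *ᵥ v - v) w = 0 := by
    intro w
    have h1 : QuadraticMap.polar Q (y *ᵥ v) w = QuadraticMap.polar Q v (x *ᵥ w) := by
      rw [← polar_isom hx (y *ᵥ v) w, hxv]
    have h2 : QuadraticMap.polar Q v (x *ᵥ w - w) = 0 := hv _ (mem_movSp_iff.mpr ⟨w, rfl⟩)
    rw [bil_sub_right hQ.polar_bilinear] at h2
    rw [bil_sub_left hQ.polar_bilinear, h1]
    exact h2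
  have h0 : y *ᵥ v - v = 0 := by
    by_contra hne
    obtain ⟨-, ⟨z', hz'⟩⟩ := hQ.nondegenerate _ hne
    exact hz' (key z')
  have h3 : y *ᵥ v = v := sub_eq_zero.mp h0
  rw [mem_fixSp_iff]
  calc x *ᵥ v = x *ᵥ (y *ᵥ v) := by rw [h3]
    _ = v := hxv

end basics

theorem pkgCntIn_of (hGeom : PkgGeom.{u}) (hSplit : PkgSplit.{u}) (hWitt : PkgCntWitt.{u})
    (hCauchy : PkgCntCauchy.{u}) : PkgCntIn.{u} := by
  intro F _ _ ι _ _ Q r x hStd m hm hmk hkc hdvd
  classical
  have hQ := hStd.nondeg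
  obtain ⟨hNdC, -, -, -, -, -⟩ := hSplit F ι Q r x hStd
  have hr1 : 1 ≤ r := hStd.prime.one_lt.le
  have hxy : x * x ^ (r - 1) = 1 := by rw [← pow_succ', Nat.sub_add_cancel hr1, hStd.pow]
  have hiso : ∀ g : GL ι F, g ∈ Cfsg.isometryGroup F Q →
      ∀ v, Q ((g : Matrix ι ι F) *ᵥ v) = Q v := fun g hg v => hg v v
  -- the pointwise stabilizer of `movSp x`
  let G : Subgroup (GL ι F) :=
    { carrier := {g | g ∈ Cfsg.isometryGroup F Q ∧ ∀ v ∈ movSp x, (g : Matrix ι ι F) *ᵥ v = v}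
      mul_mem' := by
        rintro a b ⟨ha, ha'⟩ ⟨hb, hb'⟩
        refine ⟨mul_mem ha hb, fun v hv => ?_⟩
        rw [Units.val_mul, ← Matrix.mulVec_mulVec, hb' v hv, ha' v hv]
      one_mem' := ⟨one_mem _, fun v _ => by simp⟩
      inv_mem' := by
        rintro a ⟨ha, ha'⟩
        refine ⟨inv_mem ha, fun v hv => ?_⟩
        have h := ha' v hv
        calc ((a⁻¹ : GL ι F) : Matrix ι ι F) *ᵥ v
            = ((a⁻¹ : GL ι F) : Matrix ι ι F) *ᵥ ((a : Matrix ι ι F) *ᵥ v) := by rw [h]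
          _ = v := by rw [Matrix.mulVec_mulVec, Units.inv_mul, Matrix.one_mulVec] }
  have hGmem : ∀ g : ↥G, (g : GL ι F) ∈ Cfsg.isometryGroup F Q ∧
      ∀ v ∈ movSp x, ((g : GL ι F) : Matrix ι ι F) *ᵥ v = v := fun g => g.2
  -- a hyperbolic `m`-space inside the fixed space
  obtain ⟨W₀, hW₀C, hW₀Nd, hW₀m, hW₀P⟩ :=
    hGeom F ι Q hQ hStd.two (fixSp x) hNdC m True hm (by omega) (fun _ => trivial)
  have hW₀Plus : Plus Q W₀ := hW₀P.mpr trivial
  let _ : MulAction ↥G (Submodule F (ι → F)) := subAct G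
  have hsmul : ∀ (g : ↥G) (W : Submodule F (ι → F)),
      g • W = W.map (Matrix.toLin' ((g : GL ι F) : Matrix ι ι F)) := fun g W => rfl
  have horb : ∀ W : Submodule F (ι → F), W ∈ MulAction.orbit ↥G W₀ ↔
      (Module.finrank F ↥W = m ∧ Cfsg.Geo.IsNondegenerateOn (QuadraticMap.polar Q) W ∧
        Cfsg.Geo.IsPlusTypeOn Q W) ∧ W ≤ fixSp x := by
    intro W
    constructor
    · intro hWorb
      obtain ⟨g, rfl⟩ := MulAction.mem_orbit_iff.mp hWorb
      rw [hsmul]
      obtain ⟨hg, hgN⟩ := hGmem g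
      have hfr : ∀ U : Submodule F (ι → F),
          Module.finrank F ↥(U.map (Matrix.toLin' ((g : GL ι F) : Matrix ι ι F))) =
            Module.finrank F ↥U := fun U =>
        (Submodule.equivMapOfInjective _ (gl_inj (g : GL ι F)) U).finrank_eq.symm
      refine ⟨⟨?_, ?_, ?_⟩, ?_⟩
      · rw [hfr, hW₀m]
      · intro w hw hw0
        obtain ⟨w₀, hw₀, rfl⟩ := Submodule.mem_map.mp hw
        have hne : w₀ ≠ 0 := by
          rintro rfl
          exact hw0 (map_zero _)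
        obtain ⟨⟨a, ha, ha'⟩, ⟨b, hb, hb'⟩⟩ := hW₀Nd w₀ hw₀ hne
        refine ⟨⟨_, Submodule.mem_map_of_mem ha, ?_⟩, ⟨_, Submodule.mem_map_of_mem hb, ?_⟩⟩
        · rw [Matrix.toLin'_apply, Matrix.toLin'_apply, polar_isom (hiso _ hg)]
          exact ha'
        · rw [Matrix.toLin'_apply, Matrix.toLin'_apply, polar_isom (hiso _ hg)]
          exact hb'
      · obtain ⟨U, hUW, hUs, hUd⟩ := hW₀Plus
        refine ⟨U.map (Matrix.toLin' ((g : GL ι F) : Matrix ι ι F)), Submodule.map_mono hUW,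
          ?_, ?_⟩
        · rintro _ ⟨u, hu, rfl⟩
          rw [Matrix.toLin'_apply, hiso _ hg]
          exact hUs u hu
        · rw [hfr, hfr]
          exact hUd
      · rintro _ ⟨w, hw, rfl⟩
        rw [Matrix.toLin'_apply]
        apply fix_of_perp hQ hxy hStd.isom
        intro n hn
        have hxw : x *ᵥ w = w := mem_fixSp_iff.mp (hW₀C hw)
        obtain ⟨y, rfl⟩ := mem_movSp_iff.mp hn
        have h1 : QuadraticMap.polar Q (((g : GL ι F) : Matrix ι ι F) *ᵥ w) (x *ᵥ y - y) =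
            QuadraticMap.polar Q w (x *ᵥ y - y) := by
          conv_lhs => rw [← hgN _ hn]
          exact polar_isom (hiso _ hg) _ _
        rw [h1, bil_sub_right hQ.polar_bilinear]
        have h2 : QuadraticMap.polar Q w (x *ᵥ y) = QuadraticMap.polar Q w y := by
          conv_lhs => rw [← hxw]
          exact polar_isom hStd.isom _ _
        rw [h2, sub_self]
    · rintro ⟨hW, hWC⟩
      obtain ⟨g, hg, hgN, hgW⟩ :=
        hWitt F ι Q r x hStd m ⟨W₀, hW₀m, hW₀Nd, hW₀Plus⟩ ⟨W, hW⟩ hW₀C hWC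
      exact MulAction.mem_orbit_iff.mpr ⟨⟨g, hg, hgN⟩, hgW⟩
  let e : {W : HypSp Q m // W.1 ≤ fixSp x} ≃ ↥(MulAction.orbit ↥G W₀) :=
    { toFun := fun W => ⟨W.1.1, (horb _).mpr ⟨W.1.2, W.2⟩⟩
      invFun := fun W => ⟨⟨W.1, ((horb _).mp W.2).1⟩, ((horb _).mp W.2).2⟩
      left_inv := fun W => rfl
      right_inv := fun W => rfl }
  have hcard : Nat.card {W : HypSp Q m // W.1 ≤ fixSp x} ∣ Nat.card ↥G := by
    rw [Nat.card_congr e, Nat.card_congr (MulAction.orbitEquivQuotientStabilizer ↥G W₀)]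
    exact Subgroup.card_quotient_dvd_card _
  have hrG : r ∣ Nat.card ↥G := hdvd.trans hcard
  have hpf : Fact r.Prime := ⟨hStd.prime⟩
  obtain ⟨g, hgr⟩ := exists_prime_orderOf_dvd_card' r hrG
  have hg1 : (g : GL ι F) ^ r = 1 := by
    have := pow_orderOf_eq_one g
    rw [hgr] at this
    rw [← Subgroup.coe_pow, this, Subgroup.coe_one]
  have hg2 : (g : GL ι F) = 1 := hCauchy F ι Q r x hStd hkc _ (hGmem g).1 (hGmem g).2 hg1
  have hg3 : g = 1 := Subtype.ext hg2
  rw [hg3, orderOf_one] at hgr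
  exact hStd.prime.one_lt.ne hgr

end Cfsg.Agent.Lib.Helper88.OHyp
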