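import Mathlib
import Cfsg.Agent.Lib.Helper23.OHyp.CntDefs
import Cfsg.Agent.Lib.Helper99.Quad3
import Cfsg.Agent.S0750
import Cfsg.Agent.Lib.Helper88.OHyp.CntIn

/-!
# OHYP (S5992), cut of [CNT]: package [CNTWITT]

The pointwise stabilizer of `movSp x` is transitive on the hyperbolic `m`-spaces inside `fixSp x`
(hyperbolic bases give an isometry `W ≃ W'`; Witt's lemma inside the nondegenerate space
`fixSp x`; extension by the identity on `movSp x`).
-/

set_option autoImplicit false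
open scoped MatrixGroups
open Matrix

namespace Cfsg.Agent.Lib.Helper88.OHyp

open Cfsg.Agent.Lib.Helper23.OHyp Cfsg.Agent.Lib.Helper99 Module QuadraticMap

universe u

section hyp

variable {F V : Type*} [Field F] [AddCommGroup V] [Module F V]

theorem hyp_Q_eval (Q : QuadraticForm F V) {k : ℕ} (e f : Fin k → V) (hH : HypFam Q e f)
    (a : Fin k ⊕ Fin k → F) :
    Q (∑ i, a i • Sum.elim e f i) = ∑ i, a (Sum.inl i) * a (Sum.inr i) := by
  rw [Fintype.sum_sum_type]
  have h := hyp_eval Q e f hH (fun i => a (Sum.inl i)) (fun i => a (Sum.inr i)) 0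
    (fun i => by simp)
  simpa using h

/-- a basis of a `2k`-dimensional subspace from `k` hyperbolic pairs in it. -/
theorem exists_hyp_basis [FiniteDimensional F V] (Q : QuadraticForm F V) (W : Submodule F V)
    {k : ℕ} (hW : finrank F W = 2 * k) (e f : Fin k → V) (hH : HypFam Q e f)
    (hm : ∀ i, e i ∈ W ∧ f i ∈ W) :
    ∃ b : Basis (Fin k ⊕ Fin k) F W, ∀ i, ((b i : W) : V) = Sum.elim e f i := by
  classical
  have hli0 := hyp_li Q e f hH (Fin.elim0 : Fin 0 → V)
    (linearIndependent_empty_type) (fun j => j.elim0)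
  have hli1 : LinearIndependent F (Sum.elim e f) := by
    have := hli0.comp Sum.inl Sum.inl_injective
    rwa [Sum.elim_comp_inl] at this
  have hmem : ∀ i, Sum.elim e f i ∈ W := by
    rintro (i | i)
    · exact (hm i).1
    · exact (hm i).2
  have hli2 : LinearIndependent F (fun i => (⟨Sum.elim e f i, hmem i⟩ : W)) := by
    apply LinearIndependent.of_comp W.subtype
    exact hli1
  have hc : Fintype.card (Fin k ⊕ Fin k) = finrank F W := by
    rw [hW]; simp; omega
  refine ⟨basisOfLinearIndependentOfCardEqFinrank' _ hli2 hc, fun i => ?_⟩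
  rw [coe_basisOfLinearIndependentOfCardEqFinrank']

/-- two subspaces spanned by `k` hyperbolic pairs each are isometric. -/
theorem exists_isometry_of_hyp [FiniteDimensional F V] (Q : QuadraticForm F V)
    (W W' : Submodule F V) {k : ℕ} (hW : finrank F W = 2 * k) (hW' : finrank F W' = 2 * k)
    (e₁ f₁ e₂ f₂ : Fin k → V) (h₁ : HypFam Q e₁ f₁) (h₂ : HypFam Q e₂ f₂)
    (hm₁ : ∀ i, e₁ i ∈ W ∧ f₁ i ∈ W) (hm₂ : ∀ i, e₂ i ∈ W' ∧ f₂ i ∈ W') :
    ∃ φ : W ≃ₗ[F] W', ∀ w : W, Q (φ w : V) = Q (w : V) := by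
  classical
  obtain ⟨b, hb⟩ := exists_hyp_basis Q W hW e₁ f₁ h₁ hm₁
  obtain ⟨b', hb'⟩ := exists_hyp_basis Q W' hW' e₂ f₂ h₂ hm₂
  refine ⟨b.equiv b' (Equiv.refl _), fun w => ?_⟩
  have h1 : (w : V) = ∑ i, b.repr w i • Sum.elim e₁ f₁ i := by
    conv_lhs => rw [← b.sum_repr w]
    rw [Submodule.coe_sum]
    apply Finset.sum_congr rfl
    intro i _
    rw [Submodule.coe_smul, hb]
  have h2 : ((b.equiv b' (Equiv.refl _) w : W') : V) = ∑ i, b.repr w i • Sum.elim e₂ f₂ i := by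
    conv_lhs => rw [← b.sum_repr w]
    rw [map_sum, Submodule.coe_sum]
    apply Finset.sum_congr rfl
    intro i _
    rw [map_smul, Basis.equiv_apply, Submodule.coe_smul, Equiv.refl_apply, hb']
  rw [h1, h2, hyp_Q_eval Q e₁ f₁ h₁, hyp_Q_eval Q e₂ f₂ h₂]

end hyp

section main

variable {F : Type u} [Field F] {ι : Type}

theorem exists_qf {Q : (ι → F) → F} (hQ : Cfsg.Geo.IsNondegenerateQuadraticForm Q) :
    ∃ Q' : QuadraticForm F (ι → F), ⇑Q' = Q ∧ (QuadraticMap.polarBilin Q').Nondegenerate := by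
  refine ⟨QuadraticMap.ofPolar Q (fun a x => by rw [hQ.smul, smul_eq_mul, pow_two])
    (fun x x' y => hQ.polar_bilinear.add_left x x' y)
    (fun a x y => by rw [hQ.polar_bilinear.smul_left, smul_eq_mul]), rfl, ?_, ?_⟩
  · intro x hx
    by_contra hx0
    obtain ⟨y, hy⟩ := (hQ.nondegenerate x hx0).2
    exact hy (hx y)
  · intro y hy
    by_contra hy0
    obtain ⟨x, hx⟩ := (hQ.nondegenerate y hy0).1
    exact hx (hy x)

end main

theorem pkgCntWitt_of (hSplit : PkgSplit.{u}) : PkgCntWitt.{u} := by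
  intro F _ _ ι _ _ Q r x hStd m W W' hWC hW'C
  classical
  obtain ⟨hNdC, -, hPerp, hCompl, -, -⟩ := hSplit F ι Q r x hStd
  obtain ⟨Q', hQQ, hQ'⟩ := exists_qf hStd.nondeg
  subst hQQ
  obtain ⟨W, hWm, hWnd, U, hUW, hUs, hUd⟩ := W
  obtain ⟨W', hW'm, hW'nd, U', hU'W', hU's, hU'd⟩ := W'
  simp only at hWC hW'C ⊢
  -- hyperbolic pairs
  have hWq : QNondegOn Q' W := by
    intro w hw hwv
    by_contra hne
    obtain ⟨-, ⟨y, hy, hy'⟩⟩ := hWnd w hw hne
    exact hy' (hwv y hy)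
  have hW'q : QNondegOn Q' W' := by
    intro w hw hwv
    by_contra hne
    obtain ⟨-, ⟨y, hy, hy'⟩⟩ := hW'nd w hw hne
    exact hy' (hwv y hy)
  obtain ⟨e₁, f₁, hH₁, hm₁⟩ := hyp_of_singular Q' (finrank F U) W U hWq hUW hUs le_rfl
  have hUU' : finrank F U' = finrank F U := by omega
  obtain ⟨e₂, f₂, hH₂, hm₂⟩ := hyp_of_singular Q' (finrank F U) W' U' hW'q hU'W' hU's hUU'.ge
  obtain ⟨φ₀, hφ₀⟩ := exists_isometry_of_hyp Q' W W' (by omega) (by omega) e₁ f₁ e₂ f₂ hH₁ hH₂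
    hm₁ hm₂
  -- the quadratic space `fixSp x`
  have hQCpolar : ∀ u v : ↥(fixSp x), QuadraticMap.polar (Q'.comp (fixSp x).subtype) u v =
      QuadraticMap.polar Q' (u : ι → F) (v : ι → F) := by
    intro u v
    simp [QuadraticMap.polar]
  have hQCnd : (QuadraticMap.polarBilin (Q'.comp (fixSp x).subtype)).Nondegenerate := by
    refine ⟨?_, ?_⟩
    · intro u hu
      by_contra hne
      have hne' : (u : ι → F) ≠ 0 := fun h => hne (Subtype.ext h)
      obtain ⟨-, ⟨y, hy, hy'⟩⟩ := hNdC (u : ι → F) u.2 hne'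
      apply hy'
      have := hu ⟨y, hy⟩
      rw [QuadraticMap.polarBilin_apply_apply, hQCpolar] at this
      exact this
    · intro u hu
      by_contra hne
      have hne' : (u : ι → F) ≠ 0 := fun h => hne (Subtype.ext h)
      obtain ⟨⟨y, hy, hy'⟩, -⟩ := hNdC (u : ι → F) u.2 hne'
      apply hy'
      have := hu ⟨y, hy⟩
      rw [QuadraticMap.polarBilin_apply_apply, hQCpolar] at this
      exact this
  -- Witt inside `fixSp x`
  obtain ⟨gC, hgCQ, hgCφ⟩ := Cfsg.Agent.S0750.result (Q'.comp (fixSp x).subtype) hQCnd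
    (W.comap (fixSp x).subtype) (W'.comap (fixSp x).subtype)
    ((Submodule.comapSubtypeEquivOfLe hWC).trans
      (φ₀.trans (Submodule.comapSubtypeEquivOfLe hW'C).symm))
    (by
      intro y
      have := hφ₀ (Submodule.comapSubtypeEquivOfLe hWC y)
      simpa using this)
  -- extension by the identity on `movSp x`
  set G : (ι → F) →ₗ[F] (ι → F) :=
    LinearMap.ofIsCompl hCompl ((fixSp x).subtype ∘ₗ (gC : ↥(fixSp x) →ₗ[F] ↥(fixSp x)))
      (movSp x).subtype with hGdef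
  have hG_C : ∀ u : ↥(fixSp x), G (u : ι → F) = (gC u : ι → F) := fun u => by
    rw [hGdef, LinearMap.ofIsCompl_apply_left]; rfl
  have hG_N : ∀ n ∈ movSp x, G n = n := fun n hn => by
    have := LinearMap.ofIsCompl_apply_right hCompl
      (φ := (fixSp x).subtype ∘ₗ (gC : ↥(fixSp x) →ₗ[F] ↥(fixSp x)))
      (ψ := (movSp x).subtype) ⟨n, hn⟩
    exact this
  have hGiso : ∀ v, Q' (G v) = Q' v := by
    intro v
    have hv : v ∈ fixSp x ⊔ movSp x := by rw [hCompl.sup_eq_top]; trivial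
    obtain ⟨c, hc, n, hn, rfl⟩ := Submodule.mem_sup.mp hv
    have h1 : G (c + n) = (gC ⟨c, hc⟩ : ι → F) + n := by
      rw [map_add, hG_N n hn]
      congr 1
      exact hG_C ⟨c, hc⟩
    have h2 : Q' ((gC ⟨c, hc⟩ : ↥(fixSp x)) : ι → F) = Q' c := by
      have := hgCQ ⟨c, hc⟩
      simpa using this
    rw [h1, QuadraticMap.map_add (⇑Q') ((gC ⟨c, hc⟩ : ↥(fixSp x)) : ι → F) n,
      QuadraticMap.map_add (⇑Q') c n, h2,
      hPerp _ (gC ⟨c, hc⟩).2 n hn, hPerp c hc n hn]
  -- the matrix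
  set A : Matrix ι ι F := LinearMap.toMatrix' G with hAdef
  have hAG : ∀ v, A *ᵥ v = G v := fun v => by
    rw [← Matrix.toLin'_apply, hAdef, Matrix.toLin'_toMatrix']
  have hAiso : ∀ v, Q' (A *ᵥ v) = Q' v := fun v => by rw [hAG, hGiso]
  have hAinj : Function.Injective A.mulVec := by
    intro a b hab
    have h0 : A *ᵥ (a - b) = 0 := by rw [Matrix.mulVec_sub]; exact sub_eq_zero.mpr hab
    have h1 : ∀ y, QuadraticMap.polarBilin Q' (a - b) y = 0 := by
      intro y
      rw [QuadraticMap.polarBilin_apply_apply, ← polar_isom hAiso, h0]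
      simp [QuadraticMap.polar]
    exact sub_eq_zero.mp (hQ'.1 _ h1)
  have hAunit : IsUnit A := Matrix.mulVec_injective_iff_isUnit.mp hAinj
  refine ⟨hAunit.unit, ?_, ?_, ?_⟩
  · intro u v
    show Q' ((hAunit.unit : Matrix ι ι F) *ᵥ u) = Q' u
    rw [IsUnit.unit_spec, hAiso]
  · intro v hv
    rw [IsUnit.unit_spec, hAG, hG_N v hv]
  · rw [IsUnit.unit_spec]
    have hle : W.map (Matrix.toLin' A) ≤ W' := by
      rintro _ ⟨w, hw, rfl⟩
      rw [Matrix.toLin'_apply, hAG]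
      have h1 := hgCφ ⟨⟨w, hWC hw⟩, hw⟩
      have h2 : G w = (gC ⟨w, hWC hw⟩ : ι → F) := hG_C ⟨w, hWC hw⟩
      rw [h2]
      have h3 : (gC ⟨w, hWC hw⟩ : ι → F) = (φ₀ ⟨w, hw⟩ : ι → F) := by
        have h4 : (gC ⟨w, hWC hw⟩ : ι → F) =
            ↑(φ₀ ((Submodule.comapSubtypeEquivOfLe hWC) ⟨⟨w, hWC hw⟩, hw⟩)) := by
          simpa using congrArg (fun t : ↥(fixSp x) => (t : ι → F)) h1
        exact h4
      rw [h3]
      exact (φ₀ ⟨w, hw⟩).2
    apply Submodule.eq_of_le_of_finrank_eq hle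
    have hinj : Function.Injective (Matrix.toLin' A) := by
      intro a b hab
      apply hAinj
      simpa [Matrix.toLin'_apply] using hab
    rw [← (Submodule.equivMapOfInjective _ hinj W).finrank_eq, hWm, hW'm]

end Cfsg.Agent.Lib.Helper88.OHyp
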